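import Cfsg.Agent.Lib.SimplyLacedLift.Main
import Cfsg.Prelude.Def_KGroupFacts

/-!
The Schur multiplier of a Chevalley group from a splitting cover.
-/

set_option autoImplicit false

namespace Cfsg.Agent.Lib.SimplyLacedLift

open Cfsg.Lie Cfsg.Agent.Lib.Chev Cfsg.Agent.Lib.SteinbergPres.Cover

universe u

variable {D : ChevalleyDatum} {T : Fast} {F : Type u} [Field F]

/-- homomorphisms of the group of (R1), (R2) lift through central extensions -/
theorem exists_lift (C : Checked D T) {H : Hints} (hchk : laceCheck T H = true) {E G₁ : Type*} [Group E] [Group G₁]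
    (π₁ : E →* G₁) (hπ : Function.Surjective π₁) (hc : π₁.ker ≤ Subgroup.center E)
    (σ : D.SteinbergCover F →* G₁) : ∃ τ : D.SteinbergCover F →* E, π₁.comp τ = σ := by
  refine exists_lift_hom π₁ hπ hc σ fun P hP hker => ?_
  refine exists_section (X := coverGen C (coverHom C F) (fun r t hr => by rw [coverHom_gen C hr t]; rfl)) hchk
    (fun g => ?_) hker (fun r _ t => rfl)
  obtain ⟨p, hp, e⟩ := hP g
  exact ⟨⟨p, hp⟩, e⟩

theorem hasCyclicSchurMultiplier (C : Checked D T) (hcc : coverCheck T = true) {H : Hints} (hchk : laceCheck T H = true)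
    [Finite F] (hperf : commutator (D.SteinbergCover F) = ⊤) {n : ℕ} [NeZero n]
    (hn : Nat.card (coverHom C F).ker = n) (hcyc : IsCyclic (coverHom C F).ker) :
    Cfsg.HasCyclicSchurMultiplier ↥(D.group F) n := by
  set θ := coverHom C F with hθ
  let X := coverGen C θ (fun r t hr => by rw [coverHom_gen C hr t]; rfl)
  have hsurj : Function.Surjective θ := surjective_of_pr X rfl
  have hcent : θ.ker ≤ Subgroup.center (D.SteinbergCover F) := by
    rw [← mem_ker_pr X rfl]
    exact (X.ker_le hcc).trans inf_le_left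
  haveI : Fintype F := Fintype.ofFinite F
  haveI : Finite ↥(D.group F) := inferInstance
  haveI : Finite (D.SteinbergCover F) := by
    refine Nat.finite_of_card_ne_zero ?_
    rw [← θ.ker.card_mul_index, hn, Subgroup.index_ker]
    exact mul_ne_zero (NeZero.ne n) (by
      rw [MonoidHom.range_eq_top.2 hsurj, Subgroup.card_top]
      exact Nat.card_pos.ne')
  let e : θ.ker ≃* Multiplicative (ZMod n) :=
    mulEquivOfCyclicCardEq (by rw [hn, Nat.card_congr Multiplicative.toAdd, Nat.card_zmod])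
  refine ⟨⟨D.SteinbergCover F, inferInstance, inferInstance, θ, ⟨hsurj, hcent, ?_⟩, ⟨e⟩⟩, ?_⟩
  · rw [hperf]; exact le_top
  intro Γ _ _ σ hσ
  obtain ⟨τ, hτ⟩ := exists_lift C hchk σ hσ.1 hσ.2.1 θ
  have happ : ∀ d, σ (τ d) = θ d := fun d => DFunLike.congr_fun hτ d
  -- `τ` is onto
  have hdec : ∀ g : Γ, ∃ d : D.SteinbergCover F, ∃ z ∈ σ.ker, g = τ d * z := fun g => by
    obtain ⟨d, hd⟩ := hsurj (σ g)
    exact ⟨d, (τ d)⁻¹ * g, by rw [MonoidHom.mem_ker, map_mul, map_inv, happ, hd, inv_mul_cancel], by group⟩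
  have hcomm : commutator Γ ≤ τ.range := by
    rw [commutator_eq_closure, Subgroup.closure_le]
    rintro _ ⟨a, b, rfl⟩
    obtain ⟨d, z, hz, rfl⟩ := hdec a
    obtain ⟨d', z', hz', rfl⟩ := hdec b
    refine ⟨d * d' * d⁻¹ * d'⁻¹, ?_⟩
    rw [commutatorElement_def, comm_congr hσ.2.1 (a := τ d * z) (a' := τ d) (b := τ d' * z') (b' := τ d')
      (by rw [map_mul, MonoidHom.mem_ker.1 hz, mul_one]) (by rw [map_mul, MonoidHom.mem_ker.1 hz', mul_one])]
    simp only [map_mul, map_inv]
  let f : θ.ker →* σ.ker := (τ.comp θ.ker.subtype).codRestrict σ.ker fun d => by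
    rw [MonoidHom.mem_ker, MonoidHom.comp_apply, Subgroup.coe_subtype, happ, MonoidHom.mem_ker.1 d.2]
  refine ⟨f.comp e.symm.toMonoidHom, fun z => ?_⟩
  obtain ⟨d, hd⟩ := hcomm (hσ.2.2 z.2)
  have hk : d ∈ θ.ker := by
    rw [MonoidHom.mem_ker, ← happ, hd]; exact z.2
  refine ⟨e ⟨d, hk⟩, ?_⟩
  refine Subtype.ext ?_
  simpa [f] using hd

/-- the kernel of the cover over a finite field -/
theorem card_ker (C : Checked D T) {θ : D.SteinbergGroup F →* ↥(D.group F)}
    (hθ : ∀ (r : ℕ) (t : F), r < D.nroots →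
      ((θ (D.stGen F r t) : GL D.Idx F) : Matrix D.Idx D.Idx F) = D.x F r t)
    (e : D.SteinbergCover F ≃* D.SteinbergGroup F)
    (he : ∀ (r : ℕ) (t : F), e (D.scGen F r t) = D.stGen F r t) :
    Nat.card (coverHom C F).ker = Nat.card θ.ker := by
  have h : θ.comp e.toMonoidHom = coverHom C F := by
    refine PresentedGroup.ext fun p => ?_
    have hp : PresentedGroup.of p = D.scGen F p.1 p.2 := by
      simp [ChevalleyDatum.scGen, ChevalleyDatum.stX, PresentedGroup.of]
    rw [hp, MonoidHom.comp_apply]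
    refine Subtype.ext (Units.ext ?_)
    show ((θ (e (D.scGen F p.1 p.2)) : GL D.Idx F) : Matrix D.Idx D.Idx F) = _
    rw [he, hθ _ _ p.1.2, coverHom_gen C p.1.2 p.2]
    rfl
  rw [← h]
  refine Nat.card_congr (e.toEquiv.subtypeEquiv fun a => Iff.rfl)

end Cfsg.Agent.Lib.SimplyLacedLift
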